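import Mathlib
import Cfsg.Agent.Lib.Helper70.HH.S3789Defs
import Cfsg.Agent.Lib.Helper87.PGroupFrattini

/-!
# S3789, package (P7) `LemDim`: the order bound `|Q : Φ(Q)| ≤ 4`

Reduction to the packages `LemKer` (P4), `LemIndep` (P5) and `LemDimAbs` (P6), which are taken
as hypotheses.  (helper94)
-/

set_option autoImplicit false

namespace Cfsg.Agent.Lib.Helper94.HH89

open Module Cfsg.Agent.Lib.Helper70.HH89

universe u v w

/-- In a finite group, a predicate closed under `1` and products holds on a generated subgroup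
as soon as it holds on the generators. -/
theorem closure_ind_fin {H : Type u} [Group H] [Finite H] (S : Set H) (P : H → Prop)
    (h1 : P 1) (hmul : ∀ a b, P a → P b → P (a * b)) (hS : ∀ s ∈ S, P s) :
    ∀ t ∈ Subgroup.closure S, P t := by
  have hpow : ∀ (g : H), P g → ∀ n : ℕ, P (g ^ n) := by
    intro g hg n
    induction n with
    | zero => rw [pow_zero]; exact h1
    | succ n ih => rw [pow_succ]; exact hmul _ _ ih hg
  let K : Subgroup H :=
    { carrier := {g | P g}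
      mul_mem' := fun ha hb => hmul _ _ ha hb
      one_mem' := h1
      inv_mem' := by
        intro g hg
        have h2 : g⁻¹ = g ^ (orderOf g - 1) := by
          apply inv_eq_of_mul_eq_one_right
          rw [← pow_succ', Nat.sub_add_cancel (orderOf_pos g), pow_orderOf_eq_one]
        show P g⁻¹
        rw [h2]; exact hpow g hg _ }
  have hle : Subgroup.closure S ≤ K := (Subgroup.closure_le K).2 hS
  exact fun t ht => hle ht

/-- (P7) `LemDim` from `LemKer`, `LemIndep` and `LemDimAbs`. -/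
theorem lemDim (hK : LemKer.{u, v, w}) (hI : LemIndep.{u, v, w}) (hA : LemDimAbs.{u, v, w}) :
    LemDim.{u, v, w} := by
  intro p q _ _ F _ _ _ H _ _ V _ _ _ ρ Q z W hp2 hqp hQ hzQ hzp hzc hfc hfpf hgen hquad hW0 hWQ
    hWz hscal hnonab hD
  classical
  -- the group `T = ⟨Q, z⟩`
  obtain ⟨T, hQT, hzT, hTind⟩ : ∃ T : Subgroup H, Q ≤ T ∧ z ∈ T ∧ ∀ P : H → Prop, P 1 →
      (∀ a b, P a → P b → P (a * b)) → (∀ g ∈ Q, P g) → P z → ∀ t ∈ T, P t := by
    refine ⟨Subgroup.closure ((Q : Set H) ∪ {z}), fun g hg => Subgroup.subset_closure (Or.inl hg),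
      Subgroup.subset_closure (Or.inr rfl), ?_⟩
    intro P h1 hmul hQ' hz'
    apply closure_ind_fin _ P h1 hmul
    rintro s (hs | hs)
    · exact hQ' s hs
    · rw [Set.mem_singleton_iff] at hs; rw [hs]; exact hz'
  -- `T` normalizes `Q`
  have hnorm : ∀ t ∈ T, ∀ g ∈ Q, t * g * t⁻¹ ∈ Q := by
    apply hTind (fun t => ∀ g ∈ Q, t * g * t⁻¹ ∈ Q)
    · intro g hg; simpa using hg
    · intro a b ha hb g hg
      have h1 := ha _ (hb g hg)
      have h2 : a * b * g * (a * b)⁻¹ = a * (b * g * b⁻¹) * a⁻¹ := by group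
      rw [h2]; exact h1
    · intro s hs g hg
      exact Q.mul_mem (Q.mul_mem hs hg) (Q.inv_mem hs)
    · exact hzQ
  -- `W` is `T`-invariant
  have hWT : ∀ t ∈ T, W.map (ρ t) ≤ W := by
    apply hTind (fun t => W.map (ρ t) ≤ W)
    · rw [map_one]
      rintro _ ⟨y, hy, rfl⟩
      exact hy
    · intro a b ha hb
      rw [map_mul]
      rintro _ ⟨y, hy, rfl⟩
      exact ha ⟨ρ b y, hb ⟨y, hy, rfl⟩, rfl⟩
    · exact hWQ
    · exact hWz
  -- a minimal nonzero `T`-invariant subspace `W0 ≤ W`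
  have hwf : WellFounded ((· < ·) : Submodule F V → Submodule F V → Prop) := wellFounded_lt
  let s : Set (Submodule F V) := {U | U ≠ ⊥ ∧ U ≤ W ∧ ∀ t ∈ T, U.map (ρ t) ≤ U}
  have hs : s.Nonempty := ⟨W, hW0, le_rfl, hWT⟩
  obtain ⟨W0, ⟨hW00, hW0W, hW0T⟩, hmin'⟩ : ∃ W0 ∈ s, ∀ U ∈ s, ¬ U < W0 :=
    ⟨hwf.min s hs, hwf.min_mem s hs, fun U hU => hwf.not_lt_min s hU⟩
  have hmin : ∀ U : Submodule F V, U ≠ ⊥ → U ≤ W0 → (∀ t ∈ T, U.map (ρ t) ≤ U) → U = W0 := by
    intro U hU0 hUW0 hUT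
    by_contra hne
    exact hmin' U ⟨hU0, hUW0.trans hW0W, hUT⟩ (lt_of_le_of_ne hUW0 hne)
  have hW0m : ∀ t ∈ T, ∀ w ∈ W0, ρ t w ∈ W0 := fun t ht w hw => hW0T t ht ⟨w, hw, rfl⟩
  have hWm : ∀ g ∈ Q, ∀ w ∈ W, ρ g w ∈ W := fun g hg w hw => hWQ g hg ⟨w, hw, rfl⟩
  -- the representation of `T` on `W0`
  have hle : ∀ t : T, W0 ≤ W0.comap ((ρ.comp T.subtype) t) := by
    intro t w hw
    exact hW0m t.1 t.2 w hw
  let ρ0 : Representation F T W0 := Representation.subrepresentation (ρ.comp T.subtype) W0 hle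
  have : Nontrivial W0 := Submodule.nontrivial_iff_ne_bot.2 hW00
  -- the faithful quotient
  let π : ↥T →* ↥T ⧸ MonoidHom.ker ρ0 := QuotientGroup.mk' (MonoidHom.ker ρ0)
  let ρq : Representation F (↥T ⧸ MonoidHom.ker ρ0) W0 :=
    QuotientGroup.lift (MonoidHom.ker ρ0) ρ0 (le_refl _)
  have hπ : Function.Surjective π := QuotientGroup.mk'_surjective _
  have hρqV : ∀ (t : T) (w : W0), ((ρq (π t) w : W0) : V) = ρ t.1 (w : V) := fun t w => rfl
  have hρqinj : Function.Injective ρq := by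
    intro a b hab
    obtain ⟨g, rfl⟩ := hπ a
    obtain ⟨h, rfl⟩ := hπ b
    have h1 : ρ0 g = ρ0 h := hab
    apply QuotientGroup.eq.2
    rw [MonoidHom.mem_ker, map_mul, ← h1, ← map_mul, inv_mul_cancel, map_one]
  -- the images of `Q`, `Φ(Q)`, `z`
  let zT : T := ⟨z, hzT⟩
  let inc : ↥Q →* ↥T := Subgroup.inclusion hQT
  let f : ↥Q →* ↥T ⧸ MonoidHom.ker ρ0 := π.comp inc
  have hfV : ∀ (g : Q) (w : W0), ((ρq (f g) w : W0) : V) = ρ g.1 (w : V) := fun g w => rfl
  have hmemfrat : ∀ g : Q, g.1 ∈ frat Q → g ∈ frattini ↥Q := by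
    intro g hg
    obtain ⟨g', hg', h⟩ := hg
    have h1 : g' = g := Subtype.ext h
    rw [← h1]; exact hg'
  have hfratmem : ∀ g : Q, g ∈ frattini ↥Q → g.1 ∈ frat Q := fun g hg => ⟨g, hg, rfl⟩
  -- kernels
  have hker : ∀ k ∈ Q, (∀ w ∈ W0, ρ k w = w) → ∀ w ∈ W, ρ k w = w :=
    hK ρ Q W W0 hQ hW0W hW00 hWQ (fun g hg => hW0T g (hQT hg)) hscal hD
  have hfrat_of_triv : ∀ k ∈ Q, (∀ w ∈ W0, ρ k w = w) → k ∈ frat Q := by
    intro k hk hk0
    have hkW := hker k hk hk0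
    apply hD k hk
    intro h hh w hw
    rw [map_mul, map_mul, Module.End.mul_apply, Module.End.mul_apply, hkW w hw,
      hkW _ (hWm h hh w hw)]
  have hcomm_triv : ∀ a ∈ T, ∀ b ∈ T, (∀ w ∈ W0, ρ (a * b) w = ρ (b * a) w) →
      ∀ w ∈ W0, ρ (a * b * a⁻¹ * b⁻¹) w = w := by
    intro a ha b hb hab w hw
    have h1 : a * b * a⁻¹ * b⁻¹ = (a * b) * (b * a)⁻¹ := by group
    have hw' : ρ (b * a)⁻¹ w ∈ W0 := hW0m _ (T.inv_mem (T.mul_mem hb ha)) w hw
    rw [h1, map_mul, Module.End.mul_apply, hab _ hw', ← Module.End.mul_apply, ← map_mul,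
      mul_inv_cancel, map_one, Module.End.one_apply]
  have hcent : ∀ g ∈ Q, (∀ h ∈ Q, ∀ w ∈ W0, ρ (g * h) w = ρ (h * g) w) → g ∈ frat Q := by
    intro g hg hcomm
    apply hD g hg
    intro h hh w hw
    have hkQ : g * h * g⁻¹ * h⁻¹ ∈ Q :=
      Q.mul_mem (Q.mul_mem (Q.mul_mem hg hh) (Q.inv_mem hg)) (Q.inv_mem hh)
    have hkW := hker _ hkQ (hcomm_triv g (hQT hg) h (hQT hh) (hcomm h hh))
    have h2 : ρ (g * h) w = ρ (g * h * g⁻¹ * h⁻¹) (ρ (h * g) w) := by
      rw [← Module.End.mul_apply, ← map_mul]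
      congr 2
      group
    rw [h2, hkW _ (hWm _ (Q.mul_mem hh hg) w hw)]
  -- hypotheses of `LemDimAbs` / `LemIndep`
  have hQbarN : (f.range).Normal := by
    constructor
    rintro _ ⟨s, rfl⟩ g
    obtain ⟨t, rfl⟩ := hπ g
    refine ⟨⟨t.1 * s.1 * t.1⁻¹, hnorm t.1 t.2 s.1 s.2⟩, ?_⟩
    show π (inc ⟨t.1 * s.1 * t.1⁻¹, _⟩) = π t * π (inc s) * (π t)⁻¹
    rw [← map_inv, ← map_mul, ← map_mul]
    rfl
  have hQbar : IsPGroup q f.range := hQ.of_surjective f.rangeRestrict f.rangeRestrict_surjective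
  have hgenbar : f.range ⊔ Subgroup.zpowers (π zT) = ⊤ := by
    rw [eq_top_iff]
    intro g _
    obtain ⟨t, rfl⟩ := hπ g
    have h1 : ∀ t' ∈ T, ∃ ht' : t' ∈ T, π ⟨t', ht'⟩ ∈ f.range ⊔ Subgroup.zpowers (π zT) := by
      apply hTind (fun t' => ∃ ht' : t' ∈ T, π ⟨t', ht'⟩ ∈ f.range ⊔ Subgroup.zpowers (π zT))
      · refine ⟨T.one_mem, ?_⟩
        have h2 : (⟨1, T.one_mem⟩ : T) = 1 := rfl
        rw [h2, map_one]; exact Subgroup.one_mem _
      · rintro a b ⟨haT, ha⟩ ⟨hbT, hb⟩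
        refine ⟨T.mul_mem haT hbT, ?_⟩
        have h2 : (⟨a * b, T.mul_mem haT hbT⟩ : T) = ⟨a, haT⟩ * ⟨b, hbT⟩ := rfl
        rw [h2, map_mul]
        exact Subgroup.mul_mem _ ha hb
      · intro g hg
        exact ⟨hQT hg, Subgroup.mem_sup_left ⟨⟨g, hg⟩, rfl⟩⟩
      · exact ⟨hzT, Subgroup.mem_sup_right (Subgroup.mem_zpowers _)⟩
    obtain ⟨_, h2⟩ := h1 t.1 t.2
    exact h2
  have hxp : (π zT) ^ p = 1 := by
    rw [← map_pow]
    have h1 : zT ^ p = 1 := Subtype.ext (by simpa using hzp)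
    rw [h1, map_one]
  have hirr : ∀ U : Submodule F W0, (∀ g : ↥T ⧸ MonoidHom.ker ρ0, U.map (ρq g) ≤ U) →
      U = ⊥ ∨ U = ⊤ := by
    intro U hU
    by_cases h0 : U = ⊥
    · left; exact h0
    right
    have h1 : U.map W0.subtype = W0 := by
      apply hmin
      · intro hb
        apply h0
        rw [eq_bot_iff]
        intro w hw
        have h2 : (w : V) ∈ U.map W0.subtype := ⟨w, hw, rfl⟩
        rw [hb, Submodule.mem_bot] at h2
        rw [Submodule.mem_bot]; exact Subtype.ext h2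
      · rintro _ ⟨w, _, rfl⟩
        exact w.2
      · rintro t ht _ ⟨_, ⟨w, hw, rfl⟩, rfl⟩
        exact ⟨ρq (π ⟨t, ht⟩) w, hU (π ⟨t, ht⟩) ⟨w, hw, rfl⟩, rfl⟩
    rw [eq_top_iff]
    intro w _
    have h2 : (w : V) ∈ U.map W0.subtype := by rw [h1]; exact w.2
    obtain ⟨w', hw', hww⟩ := h2
    have h3 : w' = w := Subtype.ext hww
    rw [← h3]; exact hw'
  have hquadq : (ρq (π zT) - 1) * (ρq (π zT) - 1) = 0 := by
    apply LinearMap.ext
    intro w
    apply Subtype.ext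
    have h1 := congrArg (fun φ : Module.End F V => φ (w : V)) hquad
    simp only [Module.End.mul_apply, LinearMap.sub_apply, Module.End.one_apply,
      LinearMap.zero_apply, map_sub] at h1
    simp only [Module.End.mul_apply, LinearMap.sub_apply, Module.End.one_apply,
      LinearMap.zero_apply, map_sub, Submodule.coe_sub, Submodule.coe_zero, hρqV]
    exact h1
  have hCQ : (frattini ↥Q).map f ≤ f.range := by
    rintro _ ⟨g, _, rfl⟩
    exact ⟨g, rfl⟩
  have hCscal : ∀ c ∈ (frattini ↥Q).map f, ∃ μ : F, ρq c = μ • (1 : Module.End F W0) := by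
    rintro _ ⟨g, hg, rfl⟩
    obtain ⟨μ, hμ⟩ := hscal g.1 (hfratmem g hg)
    refine ⟨μ, ?_⟩
    apply LinearMap.ext
    intro w
    apply Subtype.ext
    rw [hfV, hμ _ (hW0W w.2)]
    rfl
  have hcommC : ∀ a ∈ f.range, ∀ b ∈ f.range, a * b * a⁻¹ * b⁻¹ ∈ (frattini ↥Q).map f := by
    rintro _ ⟨g, rfl⟩ _ ⟨h, rfl⟩
    refine ⟨g * h * g⁻¹ * h⁻¹, Cfsg.Agent.Lib.Helper87.comm_mem_frattini hQ g h, ?_⟩
    simp only [map_mul, map_inv]
  have hcenterC : ∀ a ∈ f.range, (∀ b ∈ f.range, a * b = b * a) → a ∈ (frattini ↥Q).map f := by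
    rintro _ ⟨g, rfl⟩ hcomm
    refine ⟨g, hmemfrat g (hcent g.1 g.2 ?_), rfl⟩
    intro h hh w hw
    have h1 := hcomm (f ⟨h, hh⟩) ⟨⟨h, hh⟩, rfl⟩
    rw [← map_mul, ← map_mul] at h1
    exact congrArg (fun a => ((ρq a ⟨w, hw⟩ : W0) : V)) h1
  have hxtriv : ∀ g : Q, π zT * f g = f g * π zT →
      ∀ w ∈ W0, ρ (z * g.1 * z⁻¹ * g.1⁻¹) w = w := by
    intro g hcomm
    apply hcomm_triv z hzT g.1 (hQT g.2)
    intro w hw
    have h2 : π (zT * inc g) = π (inc g * zT) := by rw [map_mul, map_mul]; exact hcomm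
    exact congrArg (fun a => ((ρq a ⟨w, hw⟩ : W0) : V)) h2
  have hxC : ∀ a ∈ f.range, π zT * a = a * π zT → a ∈ (frattini ↥Q).map f := by
    rintro _ ⟨g, rfl⟩ hcomm
    refine ⟨g, hmemfrat g (hfpf g.1 g.2 ?_), rfl⟩
    exact hfrat_of_triv _ (Q.mul_mem (hzQ g.1 g.2) (Q.inv_mem g.2)) (hxtriv g hcomm)
  have hexnc : ∃ a ∈ f.range, π zT * a ≠ a * π zT := by
    by_contra hcon
    push Not at hcon
    have htriv : ∀ g ∈ Q, ∀ w ∈ W0, ρ g w = w := by
      let K0 : Subgroup H :=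
        { carrier := {h | ∀ w ∈ W0, ρ h w = w}
          one_mem' := by
            intro w _
            rw [map_one, Module.End.one_apply]
          mul_mem' := by
            intro a b ha hb w hw
            rw [map_mul, Module.End.mul_apply, hb w hw, ha w hw]
          inv_mem' := by
            intro a ha w hw
            have h1 : ρ a⁻¹ (ρ a w) = w := by
              rw [← Module.End.mul_apply, ← map_mul, inv_mul_cancel, map_one,
                Module.End.one_apply]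
            rw [ha w hw] at h1
            exact h1 }
      have hQK : Q ≤ K0 := hgen.trans ((Subgroup.closure_le K0).2 (by
        rintro _ ⟨g, hg, rfl⟩
        exact hxtriv ⟨g, hg⟩ (hcon _ ⟨⟨g, hg⟩, rfl⟩)))
      exact fun g hg => hQK hg
    obtain ⟨a, ha, b, hb, u, hu, hne⟩ := hnonab W0 hW00 hW0W (fun g hg => hW0T g (hQT hg))
    apply hne
    rw [htriv _ (Q.mul_mem ha hb) u hu, htriv _ (Q.mul_mem hb ha) u hu]
  -- the two packages
  have hdim : finrank F W0 ≤ 2 :=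
    hA (p := p) (q := q) ρq f.range ((frattini ↥Q).map f) (π zT) hp2 hqp hQbar hρqinj hgenbar hxp
      hirr hquadq hCQ hCscal hcommC hcenterC hxC hexnc
  have hcard : Nat.card f.range ≤ finrank F W0 ^ 2 * Nat.card ((frattini ↥Q).map f) :=
    hI ρq f.range ((frattini ↥Q).map f) hCQ (fun g _ hg => hρqinj (by rw [hg, map_one])) hCscal
      hcommC hcenterC
  -- counting
  have hkerf : f.ker ≤ frattini ↥Q := by
    intro g hg
    apply hmemfrat
    apply hfrat_of_triv g.1 g.2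
    intro w hw
    have h1 : f g = f 1 := by rw [MonoidHom.mem_ker.1 hg, map_one]
    have h2 := congrArg (fun a => ((ρq a ⟨w, hw⟩ : W0) : V)) h1
    have h3 : ρ g.1 w = ρ ((1 : Q) : H) w := h2
    rw [h3, Subgroup.coe_one, map_one, Module.End.one_apply]
  have hrel : ((frattini ↥Q).map f).relIndex f.range = (frattini ↥Q).index := by
    have h1 := Subgroup.relIndex_map_map f (frattini ↥Q) ⊤
    rw [sup_of_le_left hkerf, top_sup_eq, Subgroup.relIndex_top_right] at h1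
    rw [← h1, MonoidHom.range_eq_map]
  have h2 : Nat.card ((frattini ↥Q).map f) * ((frattini ↥Q).map f).relIndex f.range =
      Nat.card f.range := by
    have h := Subgroup.relIndex_mul_relIndex ⊥ ((frattini ↥Q).map f) f.range bot_le hCQ
    rwa [Subgroup.relIndex_bot_left, Subgroup.relIndex_bot_left] at h
  have h3 : Nat.card (frattini ↥Q) * (frattini ↥Q).index = Nat.card Q := Subgroup.card_mul_index _
  have h4 : Nat.card (frat Q) = Nat.card (frattini ↥Q) :=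
    Subgroup.card_map_of_injective Q.subtype_injective
  have hCpos : 0 < Nat.card ((frattini ↥Q).map f) := Nat.card_pos
  have h5 : finrank F W0 ^ 2 ≤ 4 := by
    have := Nat.pow_le_pow_left hdim 2
    omega
  have hr : (frattini ↥Q).index ≤ 4 := by
    rw [← hrel]
    have h6 : Nat.card ((frattini ↥Q).map f) * ((frattini ↥Q).map f).relIndex f.range ≤
        Nat.card ((frattini ↥Q).map f) * 4 := by
      rw [h2]
      calc Nat.card f.range ≤ finrank F W0 ^ 2 * Nat.card ((frattini ↥Q).map f) := hcard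
        _ ≤ 4 * Nat.card ((frattini ↥Q).map f) := Nat.mul_le_mul_right _ h5
        _ = Nat.card ((frattini ↥Q).map f) * 4 := Nat.mul_comm _ _
    exact Nat.le_of_mul_le_mul_left h6 hCpos
  rw [h4, ← h3, Nat.mul_comm 4]
  exact Nat.mul_le_mul_left _ hr

end Cfsg.Agent.Lib.Helper94.HH89
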